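import Mathlib
import Cfsg.Prelude.Def_OddOrderLocal
import Cfsg.Agent.S1453
import Cfsg.Agent.Lib.Helper31.BG.PComp

/-!
Pure endgame of Bender–Glauberman Lemma 13.12 (`tau12_regular`): a `q`-group `T` with a coprime
group `V` of automorphisms such that `T = [T, V]`, `V` acting as an abelian group, cannot contain an
element `a0` with the properties listed in `tau12_endgame`.
-/

set_option autoImplicit false

namespace Cfsg.Agent.Lib.Helper30.BG

open Cfsg Subgroup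
open scoped commutatorElement

variable {G : Type*} [Group G]

/-- Transfer-type lemma: if `V` normalizes `T`, `T = [T, V]` and `V` centralizes `a ∈ T`,
then `a ^ |V| ∈ T'`. -/
theorem pow_card_mem_commutator_of_fixed [Finite G] {T V : Subgroup G}
    (hVT : V ≤ normalizer (T : Set G)) (hTV : ⁅T, V⁆ = T) {a : G} (haT : a ∈ T)
    (haV : ∀ v ∈ V, v * a = a * v) : a ^ Nat.card V ∈ ⁅T, T⁆ := by
  classical
  haveI : Fintype V := Fintype.ofFinite V
  have hconj : ∀ (v : V) (t : T), (v : G) * t * (v : G)⁻¹ ∈ T := fun v t =>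
    (Subgroup.mem_normalizer_iff.mp (hVT v.2) t).mp t.2
  obtain ⟨F, hF⟩ : ∃ F : T → Abelianization T, ∀ t : T,
      F t = ∏ v : V, Abelianization.of (⟨(v : G) * t * (v : G)⁻¹, hconj v t⟩ : T) :=
    ⟨_, fun _ => rfl⟩
  have hF_mul : ∀ s t : T, F (s * t) = F s * F t := by
    intro s t
    rw [hF, hF, hF, ← Finset.prod_mul_distrib]
    apply Finset.prod_congr rfl
    intro v _
    rw [← map_mul]
    congr 1
    apply Subtype.ext
    simp [mul_assoc]
  have hF_conj : ∀ (u : V) (t : T), F ⟨(u : G) * t * (u : G)⁻¹, hconj u t⟩ = F t := by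
    intro u t
    rw [hF, hF]
    apply Fintype.prod_equiv (Equiv.mulRight u)
    intro v
    congr 1
    apply Subtype.ext
    simp [mul_assoc]
  obtain ⟨F', hF'⟩ : ∃ F' : T →* Abelianization T, ∀ t, F' t = F t :=
    ⟨MonoidHom.mk' F hF_mul, fun _ => rfl⟩
  have hker : ⁅T, V⁆ ≤ F'.ker.map T.subtype := by
    rw [Subgroup.commutator_le]
    intro t ht v hv
    refine ⟨(⟨t, ht⟩ : T) * ⟨v * ((⟨t, ht⟩ : T)⁻¹ : T) * v⁻¹, hconj ⟨v, hv⟩ (⟨t, ht⟩ : T)⁻¹⟩, ?_, ?_⟩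
    · rw [SetLike.mem_coe, MonoidHom.mem_ker, map_mul, hF', hF']
      have := hF_conj ⟨v, hv⟩ (⟨t, ht⟩ : T)⁻¹
      rw [this, ← hF_mul, mul_inv_cancel]
      rw [← hF', map_one]
    · simp [commutatorElement_def, mul_assoc]
  rw [hTV] at hker
  obtain ⟨x, hx, hxa⟩ := hker haT
  have hxa' : x = ⟨a, haT⟩ := Subtype.ext hxa
  rw [hxa'] at hx
  have h1 : F ⟨a, haT⟩ = 1 := by
    rw [← hF']
    exact hx
  rw [hF] at h1
  have h2 : ∀ v : V, (⟨(v : G) * a * (v : G)⁻¹, hconj v ⟨a, haT⟩⟩ : T) = ⟨a, haT⟩ := by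
    intro v
    apply Subtype.ext
    show (v : G) * a * (v : G)⁻¹ = a
    rw [haV v v.2, mul_inv_cancel_right]
  have h3 : ∏ v : V, Abelianization.of (⟨(v : G) * (⟨a, haT⟩ : T) * (v : G)⁻¹,
      hconj v ⟨a, haT⟩⟩ : T) = Abelianization.of (⟨a, haT⟩ : T) ^ Nat.card V := by
    rw [Finset.prod_congr rfl (fun v _ => by rw [h2 v]), Finset.prod_const, Finset.card_univ,
      Nat.card_eq_fintype_card]
  rw [h3, ← map_pow] at h1
  have h4 : (⟨a, haT⟩ : T) ^ Nat.card V ∈ commutator T := by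
    have := (QuotientGroup.eq_one_iff ((⟨a, haT⟩ : T) ^ Nat.card V)).mp h1
    exact this
  rw [← Subgroup.map_subtype_commutator]
  exact ⟨_, h4, by simp⟩

/-- If `T = P₁ P₂` with `[P₁, P₂] = 1`, `|P₁| = q ^ 3` and `P₂` cyclic, then `T' ≤ Z(T)`. -/
theorem commutator_le_centralizer_of_central_product [Finite G] {q : ℕ} [Fact q.Prime]
    {T P₁ P₂ : Subgroup G} (hsup : P₁ ⊔ P₂ = T) (hcomm : ∀ a ∈ P₁, ∀ b ∈ P₂, a * b = b * a)
    (hcard : Nat.card P₁ = q ^ 3) (hcyc : IsCyclic P₂) :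
    ⁅T, T⁆ ≤ centralizer (T : Set G) := by
  have hcm : ∀ (m : P₁) (n : P₂), Commute (P₁.subtype m) (P₂.subtype n) :=
    fun m n => hcomm m m.2 n n.2
  have hr : (MonoidHom.noncommCoprod P₁.subtype P₂.subtype hcm).range = T := by
    rw [MonoidHom.noncommCoprod_range, Subgroup.range_subtype, Subgroup.range_subtype, hsup]
  have hdec : ∀ t ∈ T, ∃ a ∈ P₁, ∃ b ∈ P₂, t = a * b := by
    intro t ht
    rw [← hr] at ht
    obtain ⟨⟨m, n⟩, rfl⟩ := ht
    exact ⟨m, m.2, n, n.2, by simp⟩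
  have hP₂ab : ∀ b ∈ P₂, ∀ c ∈ P₂, b * c = c * b := by
    intro b hb c hc
    obtain ⟨g, hg⟩ := hcyc.exists_generator
    obtain ⟨i, hi⟩ := Subgroup.mem_zpowers_iff.mp (hg ⟨b, hb⟩)
    obtain ⟨j, hj⟩ := Subgroup.mem_zpowers_iff.mp (hg ⟨c, hc⟩)
    have hb' : b = (g : G) ^ i := by
      have := congrArg Subtype.val hi
      simpa using this.symm
    have hc' : c = (g : G) ^ j := by
      have := congrArg Subtype.val hj
      simpa using this.symm
    rw [hb', hc']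
    exact ((Commute.refl (g : G)).zpow_zpow i j).eq
  have hP₂c : ∀ b ∈ P₂, ∀ t ∈ T, b * t = t * b := by
    intro b hb t ht
    obtain ⟨m, hm, n, hn, rfl⟩ := hdec t ht
    rw [← mul_assoc, ← hcomm m hm b hb, mul_assoc, hP₂ab b hb n hn, mul_assoc]
  have hcc := Cfsg.Agent.Lib.Helper31.BG.commutator_le_center_of_card_cube (P := P₁) q hcard
  rw [Subgroup.commutator_le]
  intro s hs t ht
  obtain ⟨s1, hs1, s2, hs2, rfl⟩ := hdec s hs
  obtain ⟨t1, ht1, t2, ht2, rfl⟩ := hdec t ht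
  have e1 : (s1 * s2) * (t1 * t2) = s1 * t1 * (s2 * t2) := by
    have := hP₂c s2 hs2 t1 (hsup ▸ (le_sup_left : P₁ ≤ P₁ ⊔ P₂) ht1)
    rw [mul_assoc, ← mul_assoc s2, this]
    group
  have e2 : (t1 * t2) * (s1 * s2) = t1 * s1 * (s2 * t2) := by
    have h1 := hP₂c t2 ht2 s1 (hsup ▸ (le_sup_left : P₁ ≤ P₁ ⊔ P₂) hs1)
    have h2 := hP₂ab t2 ht2 s2 hs2
    rw [mul_assoc, ← mul_assoc t2, h1, mul_assoc s1, h2]
    group
  have e3 : ⁅s1 * s2, t1 * t2⁆ = ⁅s1, t1⁆ := by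
    have : ⁅s1 * s2, t1 * t2⁆ = ((s1 * s2) * (t1 * t2)) * ((t1 * t2) * (s1 * s2))⁻¹ := by
      rw [commutatorElement_def]; group
    rw [this, e1, e2, commutatorElement_def]
    group
  rw [e3]
  have hz : (⁅(⟨s1, hs1⟩ : P₁), ⟨t1, ht1⟩⁆ : P₁) ∈ Subgroup.center P₁ := by
    apply hcc
    rw [_root_.commutator_def]
    exact Subgroup.commutator_mem_commutator (Subgroup.mem_top _) (Subgroup.mem_top _)
  have hzG : ((⁅(⟨s1, hs1⟩ : P₁), ⟨t1, ht1⟩⁆ : P₁) : G) = ⁅s1, t1⁆ := by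
    simp [commutatorElement_def]
  have hzP₁ : ⁅s1, t1⁆ ∈ P₁ := by
    rw [← hzG]; exact Subtype.property _
  rw [Subgroup.mem_centralizer_iff]
  intro x hx
  obtain ⟨x1, hx1, x2, hx2, rfl⟩ := hdec x hx
  have hzx1 : x1 * ⁅s1, t1⁆ = ⁅s1, t1⁆ * x1 := by
    have := Subgroup.mem_center_iff.mp hz ⟨x1, hx1⟩
    have h := congrArg Subtype.val this
    simp only [Subgroup.coe_mul, hzG] at h
    exact h
  have hzx2 : ⁅s1, t1⁆ * x2 = x2 * ⁅s1, t1⁆ := hcomm _ hzP₁ x2 hx2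
  rw [mul_assoc, ← hzx2, ← mul_assoc, hzx1, mul_assoc]

/-- In a `q`-group `T` of rank at least `3` (`q` odd) containing an elementary abelian subgroup
`A` of order `q ^ 2` such that every element of order dividing `q` of `C_T(a0)` lies in `A`
(`a0 ∈ A`), the element `a0` does not lie in `T'`. -/
theorem not_mem_commutator_of_rank_three [Finite G] {q : ℕ} [Fact q.Prime] (hq2 : q ≠ 2)
    {T A : Subgroup G} {a0 : G} (hT : IsPGroup q T) (hr : ¬ PRankLE q 2 T) (hAT : A ≤ T)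
    (hA : IsElementaryAbelian q A) (hA2 : Nat.card A = q ^ 2) (ha0 : a0 ∈ A)
    (hTMom : ∀ t ∈ T, t * a0 = a0 * t → t ^ q = 1 → t ∈ A) : a0 ∉ ⁅T, T⁆ := by
  intro hmem
  have hAc : ∀ a ∈ A, ∀ b ∈ A, a * b = b * a := by
    intro a ha b hb
    exact congrArg Subtype.val (hA.1.is_comm.comm ⟨a, ha⟩ ⟨b, hb⟩)
  have hE : IsElementaryAbelian q (A.subgroupOf T) := by
    refine ⟨⟨⟨fun x y => ?_⟩⟩, ?_⟩
    · apply Subtype.ext
      apply Subtype.ext
      exact hAc _ (Subgroup.mem_subgroupOf.mp x.2) _ (Subgroup.mem_subgroupOf.mp y.2)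
    · intro a ha
      apply Subtype.ext
      have := hA.2 _ (Subgroup.mem_subgroupOf.mp ha)
      simpa using this
  have hE2 : Nat.card (A.subgroupOf T) = q ^ 2 := by
    rw [← hA2]
    exact Nat.card_congr (Subgroup.subgroupOfEquivOfLe hAT).toEquiv
  have ha0' : (⟨a0, hAT ha0⟩ : T) ∈ A.subgroupOf T := Subgroup.mem_subgroupOf.mpr ha0
  have hEmax : ∀ B : Subgroup T, IsElementaryAbelian q B → A.subgroupOf T ≤ B →
      B = A.subgroupOf T := by
    intro B hB hle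
    apply le_antisymm _ hle
    intro b hb
    rw [Subgroup.mem_subgroupOf]
    apply hTMom _ b.2
    · have := congrArg Subtype.val (hB.1.is_comm.comm ⟨b, hb⟩ ⟨_, hle ha0'⟩)
      exact congrArg Subtype.val this
    · have := hB.2 b hb
      have h := congrArg Subtype.val this
      simpa using h
  obtain ⟨h1, -, ⟨hWea, hW2⟩, hchar, hidx⟩ :=
    Cfsg.Agent.S1453.result (R := T) q hq2 hT hr (A.subgroupOf T) hE hE2 hEmax
  obtain ⟨x, hx, hxa⟩ : a0 ∈ (commutator T).map T.subtype := by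
    rw [Subgroup.map_subtype_commutator]; exact hmem
  have hxa' : x = ⟨a0, hAT ha0⟩ := Subtype.ext hxa
  rw [hxa'] at hx
  haveI := hchar
  have hcomm_le : commutator T ≤ Subgroup.centralizer
      ((Subgroup.closure {x : T | x ∈ Subgroup.upperCentralSeries T 2 ∧ x ^ q = 1} :
        Subgroup T) : Set T) := by
    rw [← Subgroup.Normal.quotient_commutative_iff_commutator_le]
    haveI : IsCyclic (T ⧸ Subgroup.centralizer
      ((Subgroup.closure {x : T | x ∈ Subgroup.upperCentralSeries T 2 ∧ x ^ q = 1} :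
        Subgroup T) : Set T)) :=
      isCyclic_of_prime_card (p := q) (by rw [← Subgroup.index_eq_card]; exact hidx)
    exact ⟨⟨fun a b => (IsCyclic.commGroup).mul_comm a b⟩⟩
  have ha0C := hcomm_le hx
  rw [Subgroup.mem_centralizer_iff] at ha0C
  have hWle : (Subgroup.closure {x : T | x ∈ Subgroup.upperCentralSeries T 2 ∧ x ^ q = 1} :
      Subgroup T) ≤ A.subgroupOf T := by
    intro w hw
    rw [Subgroup.mem_subgroupOf]
    apply hTMom _ w.2
    · exact congrArg Subtype.val (ha0C w hw)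
    · have h := congrArg Subtype.val (hWea.2 w hw)
      simpa using h
  have hWeq : (Subgroup.closure {x : T | x ∈ Subgroup.upperCentralSeries T 2 ∧ x ^ q = 1} :
      Subgroup T) = A.subgroupOf T :=
    Subgroup.eq_of_le_of_card_ge hWle (by rw [hW2, hE2])
  apply h1
  rw [hWeq]
  intro y hy
  rw [Subgroup.mem_centralizer_iff]
  intro w hw
  exact congrArg Subtype.val (hE.1.is_comm.comm ⟨w, hw⟩ ⟨y, hy⟩)

/-- **Pure endgame of B&G 13.12.**  `T` a `q`-group (`q` odd), `V` a `q'`-group normalizing `T`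
with `T = [T, V]` and `[V, V]` centralizing `T`; `P ≤ V`; `A ≤ T` elementary abelian of order
`q ^ 2`, `a0 ∈ A` non-trivial with `C_A(P) = ⟨a0⟩`; every element of order dividing `q` of
`C_T(a0)` lies in `A`; `a0` is not central in `T`; every element of `V` normalizing `⟨a0⟩`
centralizes `a0`; and `T` satisfies the conclusion of S1412 if it has rank at most `2`.
Then a contradiction. -/
theorem tau12_endgame [Finite G] {q : ℕ} [Fact q.Prime] (hq2 : q ≠ 2)
    {T V P A : Subgroup G} {a0 : G}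
    (hT : IsPGroup q T) (hVT : V ≤ normalizer (T : Set G)) (hVq : (Nat.card V).Coprime q)
    (hTV : ⁅T, V⁆ = T) (hVab : ⁅V, V⁆ ≤ centralizer (T : Set G)) (hPV : P ≤ V)
    (hAT : A ≤ T) (hA : IsElementaryAbelian q A ∧ Nat.card A = q ^ 2)
    (ha0 : a0 ∈ A) (ha1 : a0 ≠ 1)
    (hPa : ∀ x ∈ P, x * a0 = a0 * x)
    (hCA : ∀ a ∈ A, (∀ x ∈ P, x * a = a * x) → a ∈ Subgroup.zpowers a0)
    (hTMom : ∀ t ∈ T, t * a0 = a0 * t → t ^ q = 1 → t ∈ A)
    (hnc : ∃ t ∈ T, t * a0 ≠ a0 * t)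
    (hNC : ∀ v ∈ V, v ∈ normalizer ((Subgroup.zpowers a0 : Subgroup G) : Set G) →
      v * a0 = a0 * v)
    (h1412 : PRankLE q 2 T → IsMulCommutative T ∨ ∃ P₁ P₂ : Subgroup G, P₁ ⊔ P₂ = T ∧
      (∀ a ∈ P₁, ∀ b ∈ P₂, a * b = b * a) ∧ ¬ IsMulCommutative P₁ ∧ Nat.card P₁ = q ^ 3 ∧
      Monoid.exponent P₁ = q ∧ IsCyclic P₂ ∧
      Subgroup.closure {x : G | x ∈ P₂ ∧ x ^ q = 1} = P₁ ⊓ Subgroup.centralizer (P₁ : Set G)) :
    False := by
  have hq : q.Prime := Fact.out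
  have ha0T : a0 ∈ T := hAT ha0
  have ha0q : a0 ^ q = 1 := hA.1.2 a0 ha0
  have hord : orderOf a0 = q := orderOf_eq_prime ha0q ha1
  -- Step 1: `V` normalizes `Q = C_T(P)`
  have hQ : ∀ v ∈ V, ∀ c ∈ T, (∀ x ∈ P, x * c = c * x) →
      v * c * v⁻¹ ∈ T ∧ ∀ x ∈ P, x * (v * c * v⁻¹) = v * c * v⁻¹ * x := by
    intro v hv c hcT hcP
    refine ⟨(Subgroup.mem_normalizer_iff.mp (hVT hv) c).mp hcT, ?_⟩
    intro x hx
    have hzV : ⁅x⁻¹, v⁻¹⁆ ∈ ⁅V, V⁆ :=
      Subgroup.commutator_mem_commutator (V.inv_mem (hPV hx)) (V.inv_mem hv)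
    have hzc : c * ⁅x⁻¹, v⁻¹⁆ = ⁅x⁻¹, v⁻¹⁆ * c :=
      (Subgroup.mem_centralizer_iff.mp (hVab hzV)) c hcT
    have hz : v⁻¹ * x * v = x * ⁅x⁻¹, v⁻¹⁆ := by
      rw [commutatorElement_def]; group
    have hxc := hcP x hx
    calc x * (v * c * v⁻¹) = v * (v⁻¹ * x * v) * c * v⁻¹ := by group
      _ = v * (x * ⁅x⁻¹, v⁻¹⁆) * c * v⁻¹ := by rw [hz]
      _ = v * x * (⁅x⁻¹, v⁻¹⁆ * c) * v⁻¹ := by group
      _ = v * x * (c * ⁅x⁻¹, v⁻¹⁆) * v⁻¹ := by rw [hzc]
      _ = v * (x * c) * ⁅x⁻¹, v⁻¹⁆ * v⁻¹ := by group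
      _ = v * (c * x) * ⁅x⁻¹, v⁻¹⁆ * v⁻¹ := by rw [hxc]
      _ = v * c * (x * ⁅x⁻¹, v⁻¹⁆) * v⁻¹ := by group
      _ = v * c * (v⁻¹ * x * v) * v⁻¹ := by rw [hz]
      _ = v * c * v⁻¹ * x := by group
  -- Step 2: elements of order dividing `q` in `Z(Q)` lie in `⟨a0⟩`
  have hZQ : ∀ u ∈ T, (∀ x ∈ P, x * u = u * x) →
      (∀ c ∈ T, (∀ x ∈ P, x * c = c * x) → u * c = c * u) → u ^ q = 1 →
      u ∈ Subgroup.zpowers a0 := by
    intro u huT huP hucent huq
    exact hCA u (hTMom u huT (hucent a0 ha0T hPa) huq) huP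
  -- Step 3: `a0` is central in `Q`
  have ha0Z : ∀ c ∈ T, (∀ x ∈ P, x * c = c * x) → a0 * c = c * a0 := by
    have hQp : IsPGroup q (T ⊓ centralizer (P : Set G) : Subgroup G) := hT.to_le inf_le_left
    have ha0Q : a0 ∈ (T ⊓ centralizer (P : Set G) : Subgroup G) :=
      Subgroup.mem_inf.mpr ⟨ha0T, Subgroup.mem_centralizer_iff.mpr (fun x hx => hPa x hx)⟩
    haveI : Nontrivial (T ⊓ centralizer (P : Set G) : Subgroup G) :=
      ⟨⟨⟨a0, ha0Q⟩, 1, fun h => ha1 (congrArg Subtype.val h)⟩⟩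
    have hZnt := hQp.center_nontrivial
    have hZp : IsPGroup q (Subgroup.center (T ⊓ centralizer (P : Set G) : Subgroup G)) :=
      hQp.to_subgroup _
    obtain ⟨k, hk⟩ := IsPGroup.iff_card.mp hZp
    have hdvd : q ∣ Nat.card (Subgroup.center (T ⊓ centralizer (P : Set G) : Subgroup G)) := by
      rw [hk]
      have hk0 : k ≠ 0 := by
        rintro rfl
        rw [pow_zero] at hk
        have := Finite.one_lt_card_iff_nontrivial.mpr hZnt
        omega
      exact dvd_pow_self q hk0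
    obtain ⟨u, hu⟩ := exists_prime_orderOf_dvd_card' q hdvd
    have huG : orderOf ((u : (T ⊓ centralizer (P : Set G) : Subgroup G)) : G) = q := by
      rw [Subgroup.orderOf_coe, Subgroup.orderOf_coe]; exact hu
    have huQ := (u : (T ⊓ centralizer (P : Set G) : Subgroup G)).2
    have huT : ((u : (T ⊓ centralizer (P : Set G) : Subgroup G)) : G) ∈ T :=
      (Subgroup.mem_inf.mp huQ).1
    have huP : ∀ x ∈ P, x * ((u : (T ⊓ centralizer (P : Set G) : Subgroup G)) : G) =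
        ((u : (T ⊓ centralizer (P : Set G) : Subgroup G)) : G) * x :=
      fun x hx => Subgroup.mem_centralizer_iff.mp (Subgroup.mem_inf.mp huQ).2 x hx
    have hucent : ∀ c ∈ T, (∀ x ∈ P, x * c = c * x) →
        ((u : (T ⊓ centralizer (P : Set G) : Subgroup G)) : G) * c =
          c * ((u : (T ⊓ centralizer (P : Set G) : Subgroup G)) : G) := by
      intro c hcT hcP
      have hcQ : c ∈ (T ⊓ centralizer (P : Set G) : Subgroup G) :=
        Subgroup.mem_inf.mpr ⟨hcT, Subgroup.mem_centralizer_iff.mpr hcP⟩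
      have := Subgroup.mem_center_iff.mp u.2 ⟨c, hcQ⟩
      exact (congrArg Subtype.val this).symm
    have huz := hZQ _ huT huP hucent (by rw [← huG]; exact pow_orderOf_eq_one _)
    have hle : Subgroup.zpowers ((u : (T ⊓ centralizer (P : Set G) : Subgroup G)) : G) ≤
        Subgroup.zpowers a0 := Subgroup.zpowers_le.mpr huz
    have heq := Subgroup.eq_of_le_of_card_ge hle (by rw [Nat.card_zpowers, Nat.card_zpowers, huG, hord])
    have ha0u : a0 ∈ Subgroup.zpowers ((u : (T ⊓ centralizer (P : Set G) : Subgroup G)) : G) := by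
      rw [heq]; exact Subgroup.mem_zpowers a0
    obtain ⟨j, hj⟩ := Subgroup.mem_zpowers_iff.mp ha0u
    intro c hcT hcP
    rw [← hj]
    exact ((show Commute ((u : (T ⊓ centralizer (P : Set G) : Subgroup G)) : G) c from
      hucent c hcT hcP).zpow_left j).eq
  -- Step 4: `V` normalizes `⟨a0⟩`
  have hVa : ∀ v ∈ V, v * a0 * v⁻¹ ∈ Subgroup.zpowers a0 := by
    intro v hv
    obtain ⟨h1, h2⟩ := hQ v hv a0 ha0T hPa
    apply hZQ _ h1 h2
    · intro c hcT hcP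
      obtain ⟨h3, h4⟩ := hQ v⁻¹ (V.inv_mem hv) c hcT hcP
      have h5 := ha0Z _ h3 h4
      rw [inv_inv] at h5
      calc v * a0 * v⁻¹ * c = v * (a0 * (v⁻¹ * c * v)) * v⁻¹ := by group
        _ = v * ((v⁻¹ * c * v) * a0) * v⁻¹ := by rw [h5]
        _ = c * (v * a0 * v⁻¹) := by group
    · rw [conj_pow, ha0q, mul_one, mul_inv_cancel]
  have hVn : ∀ v ∈ V, v ∈ normalizer ((Subgroup.zpowers a0 : Subgroup G) : Set G) := by
    have key : ∀ v ∈ V, ∀ h ∈ Subgroup.zpowers a0, v * h * v⁻¹ ∈ Subgroup.zpowers a0 := by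
      intro v hv h hh
      obtain ⟨k, rfl⟩ := Subgroup.mem_zpowers_iff.mp hh
      rw [← conj_zpow]
      exact Subgroup.zpow_mem _ (hVa v hv) k
    intro v hv
    rw [Subgroup.mem_normalizer_iff]
    intro h
    refine ⟨key v hv h, fun hh => ?_⟩
    have := key v⁻¹ (V.inv_mem hv) _ hh
    rw [inv_inv] at this
    have e : v⁻¹ * (v * h * v⁻¹) * v = h := by group
    rwa [e] at this
  have hVc : ∀ v ∈ V, v * a0 = a0 * v := fun v hv => hNC v hv (hVn v hv)
  -- Step 5: `a0 ∈ T'`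
  have hpow := pow_card_mem_commutator_of_fixed hVT hTV ha0T hVc
  have ha0comm : a0 ∈ ⁅T, T⁆ := by
    obtain ⟨m, hm⟩ := exists_pow_eq_self_of_coprime (x := a0) (n := Nat.card V) (by rw [hord]; exact hVq)
    rw [← hm]
    exact Subgroup.pow_mem _ hpow m
  -- Step 6: `a0 ∉ T'`
  obtain ⟨t, htT, hta⟩ := hnc
  by_cases hr : PRankLE q 2 T
  · rcases h1412 hr with hc | ⟨P₁, P₂, hsup, hcomm, -, hcard, -, hcyc, -⟩
    · exact hta (congrArg Subtype.val (hc.is_comm.comm ⟨t, htT⟩ ⟨a0, ha0T⟩))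
    · have := commutator_le_centralizer_of_central_product hsup hcomm hcard hcyc ha0comm
      exact hta (Subgroup.mem_centralizer_iff.mp this t htT)
  · exact not_mem_commutator_of_rank_three hq2 hT hr hAT hA.1 hA.2 ha0 hTMom ha0comm

end Cfsg.Agent.Lib.Helper30.BG
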